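/-
Two generation of the small Ree groups.
-/
import Cfsg.Agent.Lib.Ree.Count2

set_option autoImplicit false
set_option synthInstance.maxHeartbeats 400000
set_option synthInstance.maxSize 1024

namespace CfsgLib.Ree

open Cfsg.Lie Cfsg.Lie.ChevalleyDatum CfsgLib.BN CfsgLib.Chev CfsgLib.H9.SL2Cl Matrix

variable {K : Type*} [Field K] [Fintype K] {e : ℕ}

lemma RCtx.exists_ρ_ne (C : RCtx K e) (hq : 3 < Fintype.card K) : ∃ t : K, C.ρ t ≠ t := by
  classical
  by_contra h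
  push Not at h
  -- every element is a cube root of itself
  have h1 : ∀ t : K, t ^ 3 = t := by
    intro t
    have e1 : (C.φ (C.φ t)) ^ 3 = t := C.hφ2 t
    have e2 : ∀ s : K, C.φ s = s := by
      intro s
      have := C.φ_ρ s
      rw [h s] at this
      exact this
    rw [e2, e2] at e1
    exact e1
  -- so K has at most three elements
  have h2 : ∀ t : K, t = 0 ∨ t = 1 ∨ t = -1 := by
    intro t
    have e1 : t * (t - 1) * (t + 1) = 0 := by linear_combination h1 t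
    rcases mul_eq_zero.1 e1 with e2 | e2
    · rcases mul_eq_zero.1 e2 with e3 | e3
      · exact Or.inl e3
      · exact Or.inr (Or.inl (sub_eq_zero.1 e3))
    · exact Or.inr (Or.inr (eq_neg_of_add_eq_zero_left e2))
  have h3 : (Finset.univ : Finset K) ⊆ {0, 1, -1} := by
    intro t _
    simp only [Finset.mem_insert, Finset.mem_singleton]
    exact h2 t
  have h4 := Finset.card_le_card h3
  have h5 : ({0, 1, -1} : Finset K).card ≤ 3 := Finset.card_le_three
  rw [Finset.card_univ] at h4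
  omega

lemma RCtx.add_ρ_surj (C : RCtx K e) (c : K) : ∃ y : K, y + C.ρ y = c := by
  classical
  have hinj : Function.Injective (fun y : K => y + C.ρ y) := by
    intro a b hab
    have h1 : (a - b) + C.ρ (a - b) = 0 := by
      rw [map_sub]
      have : a + C.ρ a = b + C.ρ b := hab
      linear_combination this
    set y := a - b with hy
    have h2 : C.ρ y = -y := by linear_combination h1
    have h3 : C.φ y = -y := by
      have := congrArg C.φ h2
      rw [C.φ_ρ, map_neg] at this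
      linear_combination this
    have h4 : y ^ 3 = y := by
      have e1 : (C.φ (C.φ y)) ^ 3 = y := C.hφ2 y
      rwa [h3, map_neg, h3, neg_neg] at e1
    have hy0 : y = 0 := by
      by_contra hne
      have h5 : y ^ 2 = 1 := by
        have : y * (y ^ 2 - 1) = 0 := by linear_combination h4
        rcases mul_eq_zero.1 this with h6 | h6
        · exact absurd h6 hne
        · exact sub_eq_zero.1 h6
      have h6 := C.three
      rcases sq_cases h5 with h7 | h7
      · rw [h7, map_one] at h2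
        apply C.neg_one_ne
        exact h2.symm
      · rw [h7, map_neg, map_one, neg_neg] at h2
        apply C.neg_one_ne
        exact h2
    exact sub_eq_zero.1 hy0
  exact (Finite.injective_iff_surjective.1 hinj) c

/-- A subgroup stable under the torus containing an element with non-zero first coordinate contains the whole of `U`. -/
theorem RCtx.gen_U (C : RCtx K e) (hq : 3 < Fintype.card K) (W : Subgroup ↥(twistedG2 K e)) (hH : ∀ y : Kˣ, C.rH y ∈ W) {t₀ u₀ v₀ : K} (ht₀ : t₀ ≠ 0) (hv : C.rS t₀ u₀ v₀ ∈ W) :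
    ∀ t u v, C.rS t u v ∈ W := by
  classical
  have hconj : ∀ (y : Kˣ) (t u v : K), C.rS t u v ∈ W → C.rS (y * t) (y * C.ρ y * u) (y ^ 2 * C.ρ y * v) ∈ W := by
    intro y t u v h
    rw [← C.rH_conj]
    exact mul_mem (mul_mem (hH y) h) (inv_mem (hH y))
  -- first coordinates
  have h1 : ∀ t : K, ∃ a b, C.rS t a b ∈ W := by
    intro t
    by_cases ht : t = 0
    · refine ⟨0, 0, ?_⟩
      rw [ht, C.rS_zero]
      exact one_mem _
    · have hne : t / t₀ ≠ 0 := div_ne_zero ht ht₀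
      have := hconj (Units.mk0 _ hne) _ _ _ hv
      have e1 : ((Units.mk0 _ hne : Kˣ) : K) * t₀ = t := by
        rw [Units.val_mk0]
        field_simp
      rw [e1] at this
      exact ⟨_, _, this⟩
  -- differences
  have hdiff : ∀ T A V A' V', C.rS T A V ∈ W → C.rS T A' V' ∈ W → C.rS 0 (A - A') (V - V' + T * (A - A')) ∈ W := by
    intro T A V A' V' h2 h3
    have e1 : C.rS T A V = C.rS 0 (A - A') (V - V' + T * (A - A')) * C.rS T A' V' := by
      rw [C.rS_mul]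
      congr 1 <;> ring
    rw [e1] at h2
    exact (Subgroup.mul_mem_cancel_right W h3).1 h2
  -- a non-zero second coordinate
  obtain ⟨τ, hτ⟩ := C.exists_ρ_ne hq
  obtain ⟨c₀, hc₀, d₀, hd₀⟩ : ∃ c₀ : K, c₀ ≠ 0 ∧ ∃ d₀, C.rS 0 c₀ d₀ ∈ W := by
    obtain ⟨a, b, hx⟩ := h1 1
    obtain ⟨a', b', hy⟩ := h1 τ
    have hP := mul_mem hx hy
    have hQ := mul_mem hy hx
    rw [C.rS_mul] at hP hQ
    rw [add_comm τ 1] at hQ
    have := hdiff _ _ _ _ _ hP hQ
    refine ⟨_, ?_, _, this⟩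
    have e1 : a + a' - 1 * C.ρ τ - (a' + a - τ * C.ρ 1) = τ - C.ρ τ := by
      rw [map_one]
      ring
    rw [e1]
    exact sub_ne_zero.2 hτ.symm
  -- the third layer
  have h3 : ∀ e', C.rS 0 0 e' ∈ W := by
    intro e'
    obtain ⟨a, b, hx⟩ := h1 (e' / c₀)
    set t := e' / c₀ with ht
    have e1 : C.rS t a b * C.rS 0 c₀ d₀ = C.rS t (a + c₀) (b + d₀) := by
      rw [C.rS_mul, map_zero]
      congr 1 <;> ring
    have e2 : C.rS 0 c₀ d₀ * C.rS t a b = C.rS t (a + c₀) (b + d₀ - e') := by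
      rw [C.rS_mul]
      have e3 : e' = t * c₀ := by
        rw [ht]
        field_simp
      rw [e3]
      congr 1 <;> ring
    have hP := mul_mem hx hd₀
    have hQ := mul_mem hd₀ hx
    rw [e1] at hP
    rw [e2] at hQ
    have := hdiff _ _ _ _ _ hP hQ
    have e4 : (a + c₀ - (a + c₀)) = 0 := sub_self _
    have e5 : b + d₀ - (b + d₀ - e') + t * 0 = e' := by ring
    rw [e4, e5] at this
    exact this
  -- the second layer
  have hA0 : C.rS 0 c₀ 0 ∈ W := by
    have := mul_mem hd₀ (h3 (-d₀))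
    rw [C.rS_mul] at this
    have e1 : C.rS (0 + 0) (c₀ + 0 - 0 * C.ρ 0) (d₀ + -d₀ - 0 ^ 2 * C.ρ 0 - 0 * c₀ + 0 * 0 * C.ρ 0) = C.rS 0 c₀ 0 := by
      congr 1 <;> ring
    rwa [e1] at this
  have hadd : ∀ c c', C.rS 0 c 0 ∈ W → C.rS 0 c' 0 ∈ W → C.rS 0 (c + c') 0 ∈ W := by
    intro c c' h4 h5
    have := mul_mem h4 h5
    rw [C.rS_mul] at this
    have e1 : C.rS (0 + 0) (c + c' - 0 * C.ρ 0) (0 + 0 - 0 ^ 2 * C.ρ 0 - 0 * c + 0 * 0 * C.ρ 0) = C.rS 0 (c + c') 0 := by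
      congr 1 <;> ring
    rwa [e1] at this
  have hneg : ∀ c, C.rS 0 c 0 ∈ W → C.rS 0 (-c) 0 ∈ W := by
    intro c h4
    have := inv_mem h4
    rw [C.rS_inv] at this
    have e1 : C.rS (-0) (-c - 0 * C.ρ 0) (-0 - 0 * c + 0 ^ 2 * C.ρ 0) = C.rS 0 (-c) 0 := by
      congr 1 <;> ring
    rwa [e1] at this
  have hgmul : ∀ (y c : K), C.rS 0 c 0 ∈ W → C.rS 0 (y * C.ρ y * c) 0 ∈ W := by
    intro y c h4
    by_cases hy : y = 0
    · rw [hy, zero_mul, zero_mul, C.rS_zero]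
      exact one_mem _
    · have := hconj (Units.mk0 y hy) _ _ _ h4
      simp only [Units.val_mk0, mul_zero] at this
      exact this
  have hkmul : ∀ (k c : K), C.rS 0 c 0 ∈ W → C.rS 0 (k * c) 0 ∈ W := by
    intro k c h4
    obtain ⟨y, rfl⟩ := C.add_ρ_surj k
    have h5 := hgmul (y + 1) c h4
    have h6 := hneg _ (hgmul y c h4)
    have h7 := hneg _ h4
    have h8 := hadd _ _ (hadd _ _ h5 h6) h7
    have e1 : (y + 1) * C.ρ (y + 1) * c + -(y * C.ρ y * c) + -c = (y + C.ρ y) * c := by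
      rw [map_add, map_one]
      ring
    rwa [e1] at h8
  have h2 : ∀ c, C.rS 0 c 0 ∈ W := by
    intro c
    have := hkmul (c / c₀) c₀ hA0
    rwa [div_mul_cancel₀ _ hc₀] at this
  intro t u v
  obtain ⟨a, b, hx⟩ := h1 t
  have e1 : C.rS t u v = C.rS 0 (u - a) 0 * C.rS 0 0 (v - b + t * (u - a)) * C.rS t a b := by
    rw [C.rS_mul, C.rS_mul]
    congr 1 <;> ring
  rw [e1]
  exact mul_mem (mul_mem (h2 _) (h3 _)) hx

/-- The small Ree groups are two-generated. -/
theorem RCtx.two_gen (C : RCtx K e) (hq : 3 < Fintype.card K) :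
    ∃ a b : ↥(twistedG2 K e), Subgroup.closure ({a, b} : Set ↥(twistedG2 K e)) = ⊤ := by
  classical
  obtain ⟨ζ, hζ⟩ := IsCyclic.exists_generator (α := Kˣ)
  refine ⟨C.rH ζ, C.rS 1 0 0 * C.w₁, ?_⟩
  set M := Subgroup.closure ({C.rH ζ, C.rS 1 0 0 * C.w₁} : Set ↥(twistedG2 K e)) with hM
  have hh : C.rH ζ ∈ M := Subgroup.subset_closure (Set.mem_insert _ _)
  have hb : C.rS 1 0 0 * C.w₁ ∈ M := Subgroup.subset_closure (Set.mem_insert_of_mem _ rfl)
  have hH : ∀ y : Kˣ, C.rH y ∈ M := by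
    intro y
    obtain ⟨i, rfl⟩ := hζ y
    rw [map_zpow]
    exact zpow_mem hh i
  have hζ1 : (ζ : K) ≠ 1 := by
    intro h
    have h1 : ζ = 1 := Units.ext h
    obtain ⟨i, hi⟩ := hζ (-1)
    have hi' : ζ ^ i = -1 := hi
    rw [h1, _root_.one_zpow] at hi'
    replace hi := hi'
    have h2 := congrArg Units.val hi
    simp only [Units.val_one, Units.val_neg] at h2
    exact C.neg_one_ne h2.symm
  -- the key element
  have hx₁ : C.rS 1 0 0 * C.rH ζ * (C.rS 1 0 0)⁻¹ ∈ M := by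
    have h1 := mul_mem (mul_mem (mul_mem hh hb) (inv_mem hh)) (inv_mem hb)
    have h2 : C.w₁ * (C.rH ζ)⁻¹ * C.w₁⁻¹ = C.rH ζ := by
      rw [← map_inv, C.w₁_conj_H, inv_inv]
    have e1 : C.rH ζ * (C.rS 1 0 0 * C.w₁) * (C.rH ζ)⁻¹ * (C.rS 1 0 0 * C.w₁)⁻¹ = C.rH ζ * (C.rS 1 0 0 * (C.w₁ * (C.rH ζ)⁻¹ * C.w₁⁻¹) * (C.rS 1 0 0)⁻¹) := by
      group
    rw [e1, h2] at h1
    exact (Subgroup.mul_mem_cancel_left M hh).1 h1
  have hx₂ : C.rS 1 0 0 * (C.rH ζ * (C.rS 1 0 0)⁻¹ * (C.rH ζ)⁻¹) ∈ M := by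
    have := mul_mem hx₁ (inv_mem hh)
    have e1 : C.rS 1 0 0 * C.rH ζ * (C.rS 1 0 0)⁻¹ * (C.rH ζ)⁻¹ = C.rS 1 0 0 * (C.rH ζ * (C.rS 1 0 0)⁻¹ * (C.rH ζ)⁻¹) := by group
    rwa [e1] at this
  rw [C.rS_inv, C.rH_conj, C.rS_mul] at hx₂
  have hU := C.gen_U hq M hH (t₀ := 1 + (ζ : K) * -1) (by
    intro h
    apply hζ1
    linear_combination -h) hx₂
  have hw : C.w₁ ∈ M := (Subgroup.mul_mem_cancel_left M (hU 1 0 0)).1 hb
  have hB : ∀ g, g ∈ borelOf K e → g ∈ M := by
    intro g hg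
    obtain ⟨t, u, v, y, rfl⟩ := C.mem_borelOf.1 hg
    exact mul_mem (hU _ _ _) (hH _)
  rw [eq_top_iff]
  intro g _
  rcases C.pt_cases (g • (ptI : Pts K e)) with h | ⟨t, u, v, h⟩
  · exact hB g (fix_ptI.1 h)
  · have e1 : (C.rS t u v * C.w₁) • (ptI : Pts K e) = C.ptF t u v := by
      rw [mul_smul, C.w₁_smul_ptI, C.rS_smul_ptF]
      simp only [map_zero, add_zero, mul_zero, zero_mul, sub_zero]
    have h2 : ((C.rS t u v * C.w₁)⁻¹ * g) • (ptI : Pts K e) = ptI := by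
      rw [mul_smul, h, ← e1, inv_smul_smul]
    have h3 := hB _ (fix_ptI.1 h2)
    have h4 := mul_mem (mul_mem (hU t u v) hw) h3
    have e2 : C.rS t u v * C.w₁ * ((C.rS t u v * C.w₁)⁻¹ * g) = g := by group
    rwa [e2] at h4

end CfsgLib.Ree
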